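import Mathlib
import Cfsg.Prelude.Def_JComponents
import Cfsg.Agent.Lib.Helper71.JC.JCBasic

set_option autoImplicit false

/-!
# S2942 core (helper67): a J(T)-component inside `L ∈ jOvergroups T` is subnormal in `L`

Chain `K ⊴ K C ⊴ P ⊴ L`, where `C = C_L(V)` normalizes `J = J(T)` (package P-Z) and `P/C` is an
abelian normal subgroup of `L/C` containing the odd-order elements of the normal closure of `J`
(package FF-min).
-/

namespace Cfsg.Agent.Lib.Helper67.KS12

open Cfsg.Agent.Lib.Helper71.JC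
open scoped commutatorElement

universe u
variable {G : Type u} [Group G]

/-- `(k j)^n ∈ K j^n` when `j` normalizes `K`. -/
theorem pow_mul_inv_mem {K : Subgroup G} {j : G} (hj : j ∈ Subgroup.normalizer (K : Set G))
    {k : G} (hk : k ∈ K) (n : ℕ) : (k * j) ^ n * (j ^ n)⁻¹ ∈ K := by
  induction n with
  | zero => simp
  | succ n ih =>
    have h1 : (k * j) ^ (n + 1) * (j ^ (n + 1))⁻¹
        = k * (j * ((k * j) ^ n * (j ^ n)⁻¹) * j⁻¹) := by
      rw [pow_succ' (k * j) n, pow_succ' j n]; group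
    rw [h1]
    exact K.mul_mem hk ((Subgroup.mem_normalizer_iff.mp hj _).mp ih)

/-- Odd-order elements of `K ⊔ J` lie in `K` when the 2-group `J` normalizes `K`. -/
theorem mem_of_odd_of_mem_sup {K J : Subgroup G} (hJ : IsPGroup 2 ↥J)
    (hJK : J ≤ Subgroup.normalizer (K : Set G)) {g : G} (hg : g ∈ K ⊔ J)
    (hodd : Odd (orderOf g)) : g ∈ K := by
  obtain ⟨k, hk, j, hj, rfl⟩ := (mem_sup_of_le_normalizer hJK).mp hg
  obtain ⟨m, hm⟩ := hJ ⟨j, hj⟩
  have hm' : j ^ (2 ^ m) = 1 := by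
    have := congrArg Subtype.val hm
    simpa using this
  have h1 : (k * j) ^ (2 ^ m) ∈ K := by
    have := pow_mul_inv_mem (hJK hj) hk (2 ^ m)
    rwa [hm', inv_one, mul_one] at this
  have h2 : (k * j) ^ orderOf (k * j) ∈ K := by
    rw [pow_orderOf_eq_one]; exact K.one_mem
  have hcop : Nat.Coprime (2 ^ m) (orderOf (k * j)) :=
    Nat.Coprime.pow_left m (Nat.coprime_two_left.mpr hodd)
  exact mem_of_pow_mem_coprime hcop h1 h2

/-- If `[K, J] = K` then `K ⊔ J` is generated by the `K`-conjugates of `J`. -/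
theorem sup_le_closure_conj {K J : Subgroup G} (h : ⁅K, J⁆ = K) :
    K ⊔ J ≤ Subgroup.closure {x : G | ∃ k ∈ K, ∃ j ∈ J, x = k * j * k⁻¹} := by
  have hJ : J ≤ Subgroup.closure {x : G | ∃ k ∈ K, ∃ j ∈ J, x = k * j * k⁻¹} := by
    intro j hj
    exact Subgroup.subset_closure ⟨1, K.one_mem, j, hj, by simp⟩
  refine sup_le ?_ hJ
  have hc : ⁅K, J⁆ ≤ Subgroup.closure {x : G | ∃ k ∈ K, ∃ j ∈ J, x = k * j * k⁻¹} := by
    rw [Subgroup.commutator_le]
    intro k hk j hj
    have h1 : ⁅k, j⁆ = (k * j * k⁻¹) * j⁻¹ := by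
      rw [commutatorElement_def]
    rw [h1]
    exact Subgroup.mul_mem _ (Subgroup.subset_closure ⟨k, hk, j, hj, rfl⟩)
      (Subgroup.inv_mem _ (hJ hj))
  exact (le_of_eq h.symm).trans hc

/-- If `[K, J] = K`, `K` normalizes `C` and `C` normalizes `J`, then `C` normalizes `K ⊔ J`. -/
theorem conj_mem_sup_of_normalizes {K J C : Subgroup G} (h : ⁅K, J⁆ = K)
    (hKC : K ≤ Subgroup.normalizer (C : Set G)) (hCJ : C ≤ Subgroup.normalizer (J : Set G))
    {c : G} (hc : c ∈ C) {x : G} (hx : x ∈ K ⊔ J) : c * x * c⁻¹ ∈ K ⊔ J := by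
  have key : ∀ z ∈ Subgroup.closure {x : G | ∃ k ∈ K, ∃ j ∈ J, x = k * j * k⁻¹},
      c * z * c⁻¹ ∈ K ⊔ J := by
    intro z hz
    induction hz using Subgroup.closure_induction with
    | mem y hy =>
      obtain ⟨k, hk, j, hj, rfl⟩ := hy
      -- c' = k⁻¹ c k ∈ C
      have hc' : k⁻¹ * c * k ∈ C := by
        have := (Subgroup.mem_normalizer_iff.mp (hKC (K.inv_mem hk)) c).mp hc
        simpa using this
      have hj' : (k⁻¹ * c * k) * j * (k⁻¹ * c * k)⁻¹ ∈ J :=
        (Subgroup.mem_normalizer_iff.mp (hCJ hc') j).mp hj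
      have h1 : c * (k * j * k⁻¹) * c⁻¹
          = k * ((k⁻¹ * c * k) * j * (k⁻¹ * c * k)⁻¹) * k⁻¹ := by
        group
      rw [h1]
      have hkX : k ∈ K ⊔ J := (le_sup_left : K ≤ K ⊔ J) hk
      exact Subgroup.mul_mem _ (Subgroup.mul_mem _ hkX ((le_sup_right : J ≤ K ⊔ J) hj'))
        (Subgroup.inv_mem _ hkX)
    | one => simp
    | mul x y _ _ hx hy =>
      have : c * (x * y) * c⁻¹ = (c * x * c⁻¹) * (c * y * c⁻¹) := by group
      rw [this]; exact Subgroup.mul_mem _ hx hy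
    | inv x _ hx =>
      have : c * x⁻¹ * c⁻¹ = (c * x * c⁻¹)⁻¹ := by group
      rw [this]; exact Subgroup.inv_mem _ hx
  exact key x (sup_le_closure_conj h hx)

theorem orderOf_conj_eq' (c y : G) : orderOf (c * y * c⁻¹) = orderOf y := by
  have := orderOf_injective (MulAut.conj c).toMonoidHom (MulAut.conj c).injective y
  simpa [MulAut.conj_apply] using this

/-- **By-product.** `K` generated by its odd-order elements, `[K, J] = K`, `J` a 2-group. Any subgroup
`C` normalized by `K` and normalizing `J` normalizes `K`. -/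
theorem le_normalizer_of_normalizes_J {K J C : Subgroup G}
    (hgen : Subgroup.closure {g : G | g ∈ K ∧ Odd (orderOf g)} = K) (h : ⁅K, J⁆ = K)
    (hJ : IsPGroup 2 ↥J) (hKC : K ≤ Subgroup.normalizer (C : Set G))
    (hCJ : C ≤ Subgroup.normalizer (J : Set G)) : C ≤ Subgroup.normalizer (K : Set G) := by
  have hJK : J ≤ Subgroup.normalizer (K : Set G) := le_normalizer_of_comm_eq h
  apply Cfsg.Agent.Lib.Helper53.le_normalizer_of_conj_mem
  intro c hc w hw
  rw [← hgen] at hw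
  induction hw using Subgroup.closure_induction with
  | mem y hy =>
    obtain ⟨hyK, hyodd⟩ := hy
    have h1 : c * y * c⁻¹ ∈ K ⊔ J :=
      conj_mem_sup_of_normalizes h hKC hCJ hc ((le_sup_left : K ≤ K ⊔ J) hyK)
    have h2 : orderOf (c * y * c⁻¹) = orderOf y := orderOf_conj_eq' c y
    exact mem_of_odd_of_mem_sup hJ hJK h1 (by rw [h2]; exact hyodd)
  | one => simp
  | mul x y _ _ hx hy =>
    have : c * (x * y) * c⁻¹ = (c * x * c⁻¹) * (c * y * c⁻¹) := by group
    rw [this]; exact Subgroup.mul_mem _ hx hy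
  | inv x _ hx =>
    have : c * x⁻¹ * c⁻¹ = (c * x * c⁻¹)⁻¹ := by group
    rw [this]; exact Subgroup.inv_mem _ hx

/-- A chain `K ⊴ D ⊴ P ⊴ L` (normalizer form) gives subnormality of `K` in `L`. -/
theorem isSubnormal_of_chain3 {K D P L : Subgroup G} (hKD : K ≤ D) (hDP : D ≤ P) (hPL : P ≤ L)
    (hDK : D ≤ Subgroup.normalizer (K : Set G)) (hPD : P ≤ Subgroup.normalizer (D : Set G))
    (hLP : L ≤ Subgroup.normalizer (P : Set G)) : (K.subgroupOf L).IsSubnormal := by
  have hnorm : ∀ {A B : Subgroup G}, A ≤ B → B ≤ L → B ≤ Subgroup.normalizer (A : Set G) →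
      ((A.subgroupOf L).subgroupOf (B.subgroupOf L)).Normal := by
    intro A B hAB hBL hBA
    have hle : A.subgroupOf L ≤ B.subgroupOf L := by
      intro x hx
      exact Subgroup.mem_subgroupOf.mpr (hAB (Subgroup.mem_subgroupOf.mp hx))
    rw [Subgroup.normal_subgroupOf_iff_le_normalizer hle]
    intro x hx
    have hxB : (x : G) ∈ B := Subgroup.mem_subgroupOf.mp hx
    rw [Subgroup.mem_normalizer_iff]
    intro y
    have := Subgroup.mem_normalizer_iff.mp (hBA hxB) (y : G)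
    simpa [Subgroup.mem_subgroupOf] using this
  have hP : (P.subgroupOf L).IsSubnormal := by
    have : (P.subgroupOf L).Normal :=
      (Subgroup.normal_subgroupOf_iff_le_normalizer hPL).mpr hLP
    exact this.isSubnormal
  have hD : (D.subgroupOf L).IsSubnormal := by
    refine Subgroup.IsSubnormal.step _ (P.subgroupOf L) ?_ hP (hnorm hDP hPL hPD)
    intro x hx
    exact Subgroup.mem_subgroupOf.mpr (hDP (Subgroup.mem_subgroupOf.mp hx))
  refine Subgroup.IsSubnormal.step _ (D.subgroupOf L) ?_ hD (hnorm hKD (hDP.trans hPL) hDK)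
  intro x hx
  exact Subgroup.mem_subgroupOf.mpr (hKD (Subgroup.mem_subgroupOf.mp hx))

/-- **S2942 core.** `K` a `J(T)`-component inside `L`; `C ≤ L` normal in `L` and normalizing
`J = J(T)` (P-Z: `C = C_L(Ω₁Z(O₂(L)))` normalizes `T`); `P` normal in `L` with `C ≤ P`, `P/C` abelian,
containing every odd-order element of an `L`-invariant subgroup `L1 ≥ J` (FF-min). Then `K` is
subnormal in `L`. -/
theorem s2942_core (T L K C P L1 : Subgroup G) (hT : IsPGroup 2 ↥T)
    (hK : Cfsg.IsJComponent T K) (hKL : K ≤ L)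
    (hCn : L ≤ Subgroup.normalizer (C : Set G))
    (hCJ : C ≤ Subgroup.normalizer (Cfsg.thompsonSubgroupOf 2 T : Set G))
    (hCP : C ≤ P) (hPL : P ≤ L) (hPn : L ≤ Subgroup.normalizer (P : Set G))
    (hPab : ⁅P, P⁆ ≤ C)
    (hJL1 : Cfsg.thompsonSubgroupOf 2 T ≤ L1) (hL1n : L ≤ Subgroup.normalizer (L1 : Set G))
    (hodd : ∀ g ∈ L1, Odd (orderOf g) → g ∈ P) :
    (K.subgroupOf L).IsSubnormal := by
  obtain ⟨hgen, hcomm, -, -, -, -⟩ := hK
  have hJ2 : IsPGroup 2 ↥(Cfsg.thompsonSubgroupOf 2 T) :=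
    hT.to_le (Cfsg.Agent.Lib.Helper11.thompsonSubgroupOf_le 2 T)
  -- `C` normalizes `K`
  have hCK : C ≤ Subgroup.normalizer (K : Set G) :=
    le_normalizer_of_normalizes_J hgen hcomm hJ2 (hKL.trans hCn) hCJ
  -- `K ≤ L1`
  have hKL1 : K ≤ L1 := by
    have hc : ⁅K, Cfsg.thompsonSubgroupOf 2 T⁆ ≤ L1 := by
      rw [Subgroup.commutator_le]
      intro k hk j hj
      have h1 : ⁅k, j⁆ = (k * j * k⁻¹) * j⁻¹ := by rw [commutatorElement_def]
      rw [h1]
      have hk' : k ∈ Subgroup.normalizer (L1 : Set G) := hL1n (hKL hk)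
      exact L1.mul_mem ((Subgroup.mem_normalizer_iff.mp hk' j).mp (hJL1 hj))
        (L1.inv_mem (hJL1 hj))
    exact (le_of_eq hcomm.symm).trans hc
  -- `K ≤ P`
  have hKP : K ≤ P := by
    rw [← hgen, Subgroup.closure_le]
    rintro g ⟨hgK, hgodd⟩
    exact hodd g (hKL1 hgK) hgodd
  -- the chain
  have hKD : K ≤ K ⊔ C := le_sup_left
  have hDP : K ⊔ C ≤ P := sup_le hKP hCP
  have hDK : K ⊔ C ≤ Subgroup.normalizer (K : Set G) := sup_le Subgroup.le_normalizer hCK
  have hPD : P ≤ Subgroup.normalizer ((K ⊔ C : Subgroup G) : Set G) := by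
    apply Cfsg.Agent.Lib.Helper53.le_normalizer_of_conj_mem
    intro p hp d hd
    have h1 : p * d * p⁻¹ = ⁅p, d⁆ * d := by rw [commutatorElement_def]; group
    rw [h1]
    have h2 : ⁅p, d⁆ ∈ C := hPab (Subgroup.commutator_mem_commutator hp (hDP hd))
    exact Subgroup.mul_mem _ ((le_sup_right : C ≤ K ⊔ C) h2) hd
  exact isSubnormal_of_chain3 hKD hDP hPL hDK hPD hPn

end Cfsg.Agent.Lib.Helper67.KS12
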